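import Mathlib

/-!
# Conjugacy classes of permutation groups: `k(H) ≤ 2 ^ (n - r)`

`n` is the degree and `r` the number of orbits.  Fix a point `a` of a nontrivial orbit `O`.
Then `k(H) * #H = ∑_g #C(g) ≤ ∑_{b ∈ O} ∑_g #C_{H_b}(g)`.  The inner sum is evaluated along the
path `b, g b, g² b, ...`: the elements with a given initial path form a coset of a pointwise
stabiliser, the next point runs over an orbit, and if this orbit falls into `c` orbits of the
stabiliser of the longer path then the number of orbits grows by at least `c - 1`, and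
`c ≤ 2 ^ (c - 1)`.
-/

set_option autoImplicit false
set_option linter.unusedSectionVars false

namespace Cfsg.Agent.KPerm

open Equiv Finset
open scoped Classical

variable {α : Type*} [Fintype α] [DecidableEq α]

/-- The pointwise stabiliser in `H` of `a, g a, ..., g^(i-1) a`. -/
def pre (H : Subgroup (Perm α)) (g : Perm α) (a : α) (i : ℕ) : Subgroup (Perm α) where
  carrier := {h | h ∈ H ∧ ∀ j < i, h ((g ^ j) a) = (g ^ j) a}
  one_mem' := ⟨H.one_mem, fun _ _ => rfl⟩
  mul_mem' := by
    rintro x y ⟨hx, hx'⟩ ⟨hy, hy'⟩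
    exact ⟨H.mul_mem hx hy, fun j hj => by rw [Perm.mul_apply, hy' j hj, hx' j hj]⟩
  inv_mem' := by
    rintro x ⟨hx, hx'⟩
    exact ⟨H.inv_mem hx, fun j hj => by rw [Perm.inv_eq_iff_eq, hx' j hj]⟩

theorem mem_pre {H : Subgroup (Perm α)} {g : Perm α} {a : α} {i : ℕ} {h : Perm α} :
    h ∈ pre H g a i ↔ h ∈ H ∧ ∀ j < i, h ((g ^ j) a) = (g ^ j) a := Iff.rfl

theorem pre_le (H : Subgroup (Perm α)) (g : Perm α) (a : α) (i : ℕ) : pre H g a i ≤ H :=
  fun _ h => h.1

theorem pre_zero (H : Subgroup (Perm α)) (g : Perm α) (a : α) : pre H g a 0 = H := by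
  ext h
  simp [mem_pre]

/-- Number of orbits. -/
noncomputable def orb (H : Subgroup (Perm α)) : ℕ := Nat.card (MulAction.orbitRel.Quotient H α)

theorem orb_le (H : Subgroup (Perm α)) : orb H ≤ Fintype.card α := by
  rw [← Nat.card_eq_fintype_card]
  exact Nat.card_le_card_of_surjective _ Quotient.mk''_surjective

/-- Number of elements of `H` fixing `a` and commuting with `g`. -/
noncomputable def cc (H : Subgroup (Perm α)) (a : α) (g : Perm α) : ℕ :=
  #{h : Perm α | h ∈ H ∧ h a = a ∧ Commute g h}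

theorem mem_pre_of_cc {H : Subgroup (Perm α)} {a : α} {g h : Perm α} (i : ℕ) (hH : h ∈ H)
    (ha : h a = a) (hc : Commute g h) : h ∈ pre H g a i := by
  refine ⟨hH, fun j _ => ?_⟩
  have := congrArg (fun p : Perm α => p a) (hc.pow_left j).eq
  simp only [Perm.mul_apply, ha] at this
  exact this.symm

theorem sum_commute_eq (M : Subgroup (Perm α)) :
    ∑ h ∈ ({h : Perm α | h ∈ M} : Finset (Perm α)), #{k : Perm α | k ∈ M ∧ Commute h k}
      = Nat.card (ConjClasses M) * Nat.card M := by
  rw [← card_comm_eq_card_conjClasses_mul_card,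
    Nat.card_congr (Equiv.subtypeProdEquivSigmaSubtype fun a b : M => Commute a b), Nat.card_sigma,
    Finset.sum_subtype _ (p := fun h => h ∈ M) (fun x => by simp)
      (fun h => #{k : Perm α | k ∈ M ∧ Commute h k})]
  refine Finset.sum_congr rfl fun h _ => ?_
  rw [← Fintype.card_subtype, ← Nat.card_eq_fintype_card]
  refine Nat.card_congr
    { toFun := fun k => ⟨⟨k.1, k.2.1⟩, Subtype.ext k.2.2.eq⟩
      invFun := fun k => ⟨k.1.1, k.1.2, congrArg Subtype.val k.2.eq⟩
      left_inv := fun k => rfl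
      right_inv := fun k => rfl }

/-- A coset of `M` has at most as many commuting pairs with `M` as `M` itself. -/
theorem coset_le (M : Subgroup (Perm α)) (F : Finset (Perm α))
    (hF : ∀ x ∈ F, ∀ y ∈ F, x⁻¹ * y ∈ M) :
    ∑ x ∈ F, #{h : Perm α | h ∈ M ∧ Commute x h} ≤ Nat.card (ConjClasses M) * Nat.card M := by
  rw [← sum_commute_eq M]
  have hswap : ∑ x ∈ F, #{h : Perm α | h ∈ M ∧ Commute x h}
      = ∑ h ∈ ({h : Perm α | h ∈ M} : Finset (Perm α)), #(F.filter fun x => Commute x h) := by
    simp only [Finset.card_filter, ← Finset.filter_filter]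
    rw [Finset.sum_comm]
  rw [hswap]
  refine Finset.sum_le_sum fun h hh => ?_
  rcases (F.filter fun x => Commute x h).eq_empty_or_nonempty with he | ⟨x₀, hx₀⟩
  · simp [he]
  rw [Finset.mem_filter] at hx₀
  refine Finset.card_le_card_of_injOn (fun x => x₀⁻¹ * x) (fun x hx => ?_)
    (fun x _ y _ hxy => mul_left_cancel hxy)
  rw [Finset.mem_coe, Finset.mem_filter] at hx
  rw [Finset.mem_coe, Finset.mem_filter]
  exact ⟨Finset.mem_univ _, hF _ hx₀.1 _ hx.1,
    ((hx₀.2.inv_left).mul_left hx.2).symm⟩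

theorem card_stab_mul_orbit (M : Subgroup (Perm α)) (y : α) :
    Nat.card ↥(M ⊓ MulAction.stabilizer (Perm α) y) * Nat.card (MulAction.orbit M y)
      = Nat.card M := by
  have h : Nat.card ↥(M ⊓ MulAction.stabilizer (Perm α) y)
      = Nat.card (MulAction.stabilizer M y) := Nat.card_congr
    { toFun := fun h => ⟨⟨h.1, h.2.1⟩, h.2.2⟩
      invFun := fun h => ⟨h.1.1, h.1.2, h.2⟩
      left_inv := fun h => rfl
      right_inv := fun h => rfl }
  rw [h, ← (MulAction.stabilizer M y).index_mul_card, MulAction.index_stabilizer,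
    Nat.card_coe_set_eq, mul_comm]

theorem self_le_two_pow_pred (c : ℕ) : c ≤ 2 ^ (c - 1) := by
  rcases c with _ | c
  · simp
  · simpa using Nat.lt_two_pow_self (n := c)

/-- Orbit counting: the points `y` with image `q₀` under `f` on the orbit space of `M`. -/
theorem sum_stab_le (M : Subgroup (Perm α)) {β : Type*} [Fintype β] [DecidableEq β]
    (f : MulAction.orbitRel.Quotient M α → β) (hf : Function.Surjective f) (q₀ : β) :
    (∑ y ∈ ({y : α | f (Quotient.mk'' y) = q₀} : Finset α),
        Nat.card ↥(M ⊓ MulAction.stabilizer (Perm α) y)) * 2 ^ (Fintype.card α - orb M)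
      ≤ Nat.card M * 2 ^ (Fintype.card α - Nat.card β) := by
  letI : Fintype (MulAction.orbitRel.Quotient M α) := Fintype.ofFinite _
  set Q := ({q : MulAction.orbitRel.Quotient M α | f q = q₀} : Finset _) with hQ
  have h1 : ∑ y ∈ ({y : α | f (Quotient.mk'' y) = q₀} : Finset α),
      Nat.card ↥(M ⊓ MulAction.stabilizer (Perm α) y) = Nat.card M * #Q := by
    rw [← Finset.sum_fiberwise_of_maps_to (g := fun y => (Quotient.mk'' y : MulAction.orbitRel.Quotient M α))
      (t := Q) (fun y hy => by simpa [hQ] using hy), mul_comm, ← smul_eq_mul, ← Finset.sum_const]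
    refine Finset.sum_congr rfl fun q hq => ?_
    obtain ⟨y₀, rfl⟩ := Quotient.mk''_surjective q
    have hset : (({y : α | f (Quotient.mk'' y) = q₀} : Finset α).filter fun y =>
        (Quotient.mk'' y : MulAction.orbitRel.Quotient M α) = Quotient.mk'' y₀)
        = (MulAction.orbit M y₀).toFinset := by
      ext y
      simp only [Finset.mem_filter, Finset.mem_univ, true_and, Set.mem_toFinset]
      constructor
      · rintro ⟨-, h⟩
        exact MulAction.orbitRel_apply.1 (Quotient.exact' h)
      · intro h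
        have hq' : (Quotient.mk'' y : MulAction.orbitRel.Quotient M α) = Quotient.mk'' y₀ :=
          Quotient.sound' (MulAction.orbitRel_apply.2 h)
        refine ⟨?_, hq'⟩
        rw [hq']
        simpa [hQ] using hq
    rw [hset]
    have hc : ∀ y ∈ (MulAction.orbit M y₀).toFinset,
        Nat.card ↥(M ⊓ MulAction.stabilizer (Perm α) y)
          = Nat.card ↥(M ⊓ MulAction.stabilizer (Perm α) y₀) := by
      intro y hy
      rw [Set.mem_toFinset] at hy
      have e1 := card_stab_mul_orbit M y
      rw [MulAction.orbit_eq_iff.2 hy] at e1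
      exact Nat.eq_of_mul_eq_mul_right
        (Nat.card_pos_iff.2 ⟨⟨⟨y₀, MulAction.mem_orbit_self y₀⟩⟩, inferInstance⟩)
        (e1.trans (card_stab_mul_orbit M y₀).symm)
    rw [Finset.sum_congr rfl hc, Finset.sum_const, smul_eq_mul, Set.toFinset_card,
      ← Nat.card_eq_fintype_card, mul_comm, card_stab_mul_orbit]
  have h2 : Nat.card β + (#Q - 1) ≤ orb M := by
    have hne : Q.Nonempty := by
      obtain ⟨q, hq⟩ := hf q₀
      exact ⟨q, by simp [hQ, hq]⟩
    have hsum : orb M = ∑ b : β, #{q : MulAction.orbitRel.Quotient M α | f q = b} := by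
      rw [orb, Nat.card_eq_fintype_card, ← Finset.card_univ]
      exact Finset.card_eq_sum_card_fiberwise (fun _ _ => Finset.mem_coe.2 (Finset.mem_univ _))
    rw [hsum, ← Finset.add_sum_erase _ _ (Finset.mem_univ q₀), ← hQ]
    have h3 : ∑ _b ∈ (Finset.univ.erase q₀), 1
        ≤ ∑ b ∈ Finset.univ.erase q₀, #{q : MulAction.orbitRel.Quotient M α | f q = b} := by
      refine Finset.sum_le_sum fun b _ => Finset.card_pos.2 ?_
      obtain ⟨q, hq⟩ := hf b
      exact ⟨q, by simp [hq]⟩
    simp only [Finset.sum_const, smul_eq_mul, mul_one, Finset.card_erase_of_mem (Finset.mem_univ q₀),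
      Finset.card_univ, ← Nat.card_eq_fintype_card] at h3
    have := Finset.card_pos.2 hne
    have : 0 < Nat.card β := Nat.card_pos_iff.2 ⟨⟨q₀⟩, inferInstance⟩
    omega
  rw [h1, mul_assoc]
  refine Nat.mul_le_mul_left _ ?_
  have := orb_le M
  calc #Q * 2 ^ (Fintype.card α - orb M)
      ≤ 2 ^ (#Q - 1) * 2 ^ (Fintype.card α - orb M) := Nat.mul_le_mul_right _ (self_le_two_pow_pred _)
    _ = 2 ^ (#Q - 1 + (Fintype.card α - orb M)) := (pow_add _ _ _).symm
    _ ≤ 2 ^ (Fintype.card α - Nat.card β) := Nat.pow_le_pow_right (by norm_num) (by omega)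

/-- The points `g^j a`, `j ≤ i`, are distinct as long as the path has not returned to `a`. -/
theorem lt_card_of_open {g : Perm α} {a : α} {i : ℕ}
    (hopen : ∀ j, 1 ≤ j → j ≤ i → (g ^ j) a ≠ a) : i < Fintype.card α := by
  have hinj : Function.Injective fun j : Fin (i + 1) => (g ^ (j : ℕ)) a := by
    intro j l h
    by_contra hne
    wlog hlt : (j : ℕ) < l generalizing j l with H
    · exact H h.symm (Ne.symm hne) (lt_of_le_of_ne (not_lt.1 hlt) (fun e => hne (Fin.ext e.symm)))
    simp only at h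
    rw [show (l : ℕ) = j + (l - j) by omega, pow_add, Perm.mul_apply] at h
    exact hopen (l - j) (by omega) (by omega) ((g ^ (j : ℕ)).injective h).symm
  simpa using Fintype.card_le_of_injective _ hinj

theorem pre_congr {H : Subgroup (Perm α)} {g g' : Perm α} {a : α} {i : ℕ}
    (h : ∀ j < i, (g' ^ j) a = (g ^ j) a) : pre H g' a i = pre H g a i := by
  ext x
  simp only [mem_pre]
  constructor <;> rintro ⟨hx, hx'⟩ <;> refine ⟨hx, fun j hj => ?_⟩
  · rw [← h j hj]; exact hx' j hj
  · rw [h j hj]; exact hx' j hj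

theorem pre_succ (H : Subgroup (Perm α)) (g : Perm α) (a : α) (i : ℕ) :
    pre H g a (i + 1) = pre H g a i ⊓ MulAction.stabilizer (Perm α) ((g ^ i) a) := by
  ext x
  simp only [mem_pre, Subgroup.mem_inf, MulAction.mem_stabilizer_iff, Perm.smul_def]
  constructor
  · rintro ⟨hx, hx'⟩
    exact ⟨⟨hx, fun j hj => hx' j (hj.trans (Nat.lt_succ_self i))⟩, hx' i (Nat.lt_succ_self i)⟩
  · rintro ⟨⟨hx, hx'⟩, hi⟩
    refine ⟨hx, fun j hj => ?_⟩
    rcases Nat.lt_succ_iff_lt_or_eq.1 hj with h | h
    · exact hx' j h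
    · exact h ▸ hi

theorem pow_succ_apply' (g : Perm α) (j : ℕ) (a : α) : (g ^ (j + 1)) a = g ((g ^ j) a) := by
  rw [pow_succ', Perm.mul_apply]

/-- The elements whose path from `a` starts like that of `g₀`. -/
noncomputable def path (H : Subgroup (Perm α)) (g₀ : Perm α) (a : α) (i : ℕ) : Finset (Perm α) :=
  {g : Perm α | g ∈ H ∧ ∀ j ≤ i, (g ^ j) a = (g₀ ^ j) a}

theorem mem_path {H : Subgroup (Perm α)} {g₀ g : Perm α} {a : α} {i : ℕ} :
    g ∈ path H g₀ a i ↔ g ∈ H ∧ ∀ j ≤ i, (g ^ j) a = (g₀ ^ j) a := by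
  simp [path]

theorem path_sum (H : Subgroup (Perm α)) (a : α)
    (hk : ∀ (g : Perm α) (i : ℕ),
      Nat.card (ConjClasses (pre H g a (i + 1))) ≤ 2 ^ (Fintype.card α - orb (pre H g a (i + 1)))) :
    ∀ (m i : ℕ) (g₀ : Perm α), Fintype.card α ≤ i + m → g₀ ∈ H →
      (∀ j, 1 ≤ j → j ≤ i → (g₀ ^ j) a ≠ a) →
      ∑ g ∈ path H g₀ a i, cc H a g
        ≤ Nat.card (pre H g₀ a (i + 1)) * 2 ^ (Fintype.card α - orb (pre H g₀ a i)) := by
  intro m
  induction m with
  | zero =>
    intro i g₀ hm _ hopen
    have := lt_card_of_open hopen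
    omega
  | succ m ih =>
    intro i g₀ hm hg₀ hopen
    set K := pre H g₀ a i with hK
    set M := pre H g₀ a (i + 1) with hM
    -- the map from `M`-orbits to `K`-orbits induced by `g₀⁻¹`
    have hconj : ∀ x ∈ M, g₀⁻¹ * x * g₀ ∈ K := by
      intro x hx
      refine ⟨H.mul_mem (H.mul_mem (H.inv_mem hg₀) hx.1) hg₀, fun j hj => ?_⟩
      rw [Perm.mul_apply, Perm.mul_apply, ← pow_succ_apply', hx.2 (j + 1) (by omega),
        pow_succ_apply']
      simp
    let f : MulAction.orbitRel.Quotient M α → MulAction.orbitRel.Quotient K α :=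
      Quotient.map' (fun y => g₀⁻¹ y) (by
        rintro y z hyz
        rw [MulAction.orbitRel_apply] at hyz ⊢
        obtain ⟨⟨x, hx⟩, rfl⟩ := hyz
        refine ⟨⟨g₀⁻¹ * x * g₀, hconj x hx⟩, ?_⟩
        simp [Subgroup.smul_def, Perm.smul_def, Perm.mul_apply])
    have hf : Function.Surjective f := by
      intro q
      obtain ⟨y, rfl⟩ := Quotient.mk''_surjective q
      exact ⟨Quotient.mk'' (g₀ y), by simp [f, Quotient.map'_mk'']⟩
    letI : Fintype (MulAction.orbitRel.Quotient K α) := Fintype.ofFinite _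
    set q₀ : MulAction.orbitRel.Quotient K α := Quotient.mk'' ((g₀ ^ i) a) with hq₀
    set T := ({y : α | f (Quotient.mk'' y) = q₀} : Finset α) with hT
    have hmaps : ∀ g ∈ path H g₀ a i, (g ^ (i + 1)) a ∈ T := by
      intro g hg
      rw [mem_path] at hg
      simp only [hT, Finset.mem_filter, Finset.mem_univ, true_and, f, Quotient.map'_mk'', hq₀]
      refine Quotient.sound' (MulAction.orbitRel_apply.2 ⟨⟨g₀⁻¹ * g, ?_⟩, ?_⟩)
      · refine ⟨H.mul_mem (H.inv_mem hg₀) hg.1, fun j hj => ?_⟩
        rw [Perm.mul_apply, Perm.inv_eq_iff_eq, ← pow_succ_apply', ← hg.2 j hj.le,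
          ← pow_succ_apply', hg.2 (j + 1) hj]
      · simp only [Subgroup.smul_def, Perm.smul_def, Perm.mul_apply]
        rw [← hg.2 i le_rfl, ← pow_succ_apply']
    have hfib : ∀ y ∈ T, ∑ g ∈ (path H g₀ a i).filter (fun g => (g ^ (i + 1)) a = y), cc H a g
        ≤ Nat.card ↥(M ⊓ MulAction.stabilizer (Perm α) y) * 2 ^ (Fintype.card α - orb M) := by
      intro y _
      rcases ((path H g₀ a i).filter (fun g => (g ^ (i + 1)) a = y)).eq_empty_or_nonempty with
        he | ⟨g₁, hg₁⟩
      · simp [he]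
      rw [Finset.mem_filter, mem_path] at hg₁
      by_cases hy : y = a
      · -- the path closes
        have hMy : M ⊓ MulAction.stabilizer (Perm α) y = M := by
          rw [inf_eq_left]
          intro x hx
          rw [hy, MulAction.mem_stabilizer_iff, Perm.smul_def]
          simpa using hx.2 0 (Nat.succ_pos i)
        rw [hMy]
        calc _ ≤ ∑ g ∈ (path H g₀ a i).filter (fun g => (g ^ (i + 1)) a = y),
              #{h : Perm α | h ∈ M ∧ Commute g h} := by
              refine Finset.sum_le_sum fun g hg => Finset.card_le_card fun h hh => ?_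
              rw [Finset.mem_filter, mem_path] at hg
              simp only [Finset.mem_filter, Finset.mem_univ, true_and] at hh ⊢
              refine ⟨?_, hh.2.2⟩
              rw [hM, ← pre_congr fun j hj => hg.1.2 j (Nat.lt_succ_iff.1 hj)]
              exact mem_pre_of_cc _ hh.1 hh.2.1 hh.2.2
          _ ≤ Nat.card (ConjClasses M) * Nat.card M := by
              refine coset_le M _ fun u hu v hv => ?_
              rw [Finset.mem_filter, mem_path] at hu hv
              refine ⟨H.mul_mem (H.inv_mem hu.1.1) hv.1.1, fun j hj => ?_⟩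
              have hj' := Nat.lt_succ_iff.1 hj
              rw [Perm.mul_apply, Perm.inv_eq_iff_eq]
              have e1 : v ((g₀ ^ j) a) = (v ^ (j + 1)) a := by rw [pow_succ_apply', hv.1.2 j hj']
              have e2 : u ((g₀ ^ j) a) = (u ^ (j + 1)) a := by rw [pow_succ_apply', hu.1.2 j hj']
              rw [e1, e2]
              rcases eq_or_lt_of_le hj' with rfl | hlt
              · rw [hv.2, hu.2]
              · rw [hv.1.2 _ hlt, hu.1.2 _ hlt]
          _ ≤ 2 ^ (Fintype.card α - orb M) * Nat.card M :=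
              Nat.mul_le_mul_right _ (hk g₀ i)
          _ = _ := mul_comm _ _
      · -- the path continues
        have hpre : pre H g₁ a (i + 1) = M :=
          pre_congr fun j hj => hg₁.1.2 j (Nat.lt_succ_iff.1 hj)
        have heq : (path H g₀ a i).filter (fun g => (g ^ (i + 1)) a = y) = path H g₁ a (i + 1) := by
          ext g
          simp only [Finset.mem_filter, mem_path]
          constructor
          · rintro ⟨⟨hg, hg'⟩, hgy⟩
            refine ⟨hg, fun j hj => ?_⟩
            rcases Nat.le_succ_iff.1 hj with h | h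
            · rw [hg' j h, hg₁.1.2 j h]
            · rw [h, hgy, hg₁.2]
          · rintro ⟨hg, hg'⟩
            exact ⟨⟨hg, fun j hj => by rw [hg' j (by omega), hg₁.1.2 j hj]⟩,
              by rw [hg' (i + 1) le_rfl, hg₁.2]⟩
        rw [heq]
        refine (ih (i + 1) g₁ (by omega) hg₁.1.1 fun j h1 h2 => ?_).trans ?_
        · rcases Nat.le_succ_iff.1 h2 with h | h
          · rw [hg₁.1.2 j h]; exact hopen j h1 h
          · rw [h, hg₁.2]; exact hy
        · rw [pre_succ H g₁ a (i + 1), hpre, hg₁.2]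
    rw [← Finset.sum_fiberwise_of_maps_to hmaps]
    refine (Finset.sum_le_sum hfib).trans ?_
    rw [← Finset.sum_mul]
    exact sum_stab_le M f hf q₀

theorem centralizer_le_sum (H : Subgroup (Perm α)) (a : α) (g : Perm α) :
    #{h : Perm α | h ∈ H ∧ Commute g h}
      ≤ ∑ b ∈ (MulAction.orbit H a).toFinset, cc H b g := by
  let C : Subgroup (Perm α) := H ⊓ Subgroup.centralizer {g}
  have hmem : ∀ h : Perm α, h ∈ C ↔ h ∈ H ∧ Commute g h := fun h => by
    simp [C, Subgroup.mem_inf, Subgroup.mem_centralizer_singleton_iff, commute_iff_eq, eq_comm]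
  have hsub : (MulAction.orbit C a).toFinset ⊆ (MulAction.orbit H a).toFinset := by
    intro b hb
    rw [Set.mem_toFinset] at hb ⊢
    obtain ⟨⟨c, hc⟩, rfl⟩ := hb
    exact ⟨⟨c, hc.1⟩, rfl⟩
  refine le_trans ?_ (Finset.sum_le_sum_of_subset hsub)
  have hb : ∀ b ∈ (MulAction.orbit C a).toFinset,
      cc H b g * Nat.card (MulAction.orbit C a) = Nat.card C := by
    intro b hb
    rw [Set.mem_toFinset] at hb
    rw [← MulAction.orbit_eq_iff.2 hb, ← card_stab_mul_orbit C b]
    congr 1
    rw [cc, ← Fintype.card_subtype, ← Nat.card_eq_fintype_card]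
    exact Nat.card_congr (Equiv.subtypeEquivRight fun h => by
      rw [Subgroup.mem_inf, hmem, MulAction.mem_stabilizer_iff, Perm.smul_def]
      tauto)
  have hC : #{h : Perm α | h ∈ H ∧ Commute g h} = Nat.card C := by
    rw [← Fintype.card_subtype, ← Nat.card_eq_fintype_card]
    exact Nat.card_congr (Equiv.subtypeEquivRight fun h => (hmem h).symm)
  rw [hC]
  refine Nat.le_of_mul_le_mul_right (le_of_eq ?_)
    (Nat.card_pos_iff.2 ⟨⟨⟨a, MulAction.mem_orbit_self a⟩⟩, inferInstance⟩ :
      0 < Nat.card (MulAction.orbit C a))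
  rw [Finset.sum_mul, Finset.sum_congr rfl hb, Finset.sum_const, smul_eq_mul, Set.toFinset_card,
    ← Nat.card_eq_fintype_card, mul_comm]

theorem card_conjClasses_le_orb :
    ∀ (N : ℕ) (H : Subgroup (Perm α)), Nat.card H = N →
      Nat.card (ConjClasses H) ≤ 2 ^ (Fintype.card α - orb H) := by
  intro N
  induction N using Nat.strong_induction_on with
  | _ N ih =>
    intro H hN
    by_cases hH : H = ⊥
    · subst hH
      refine le_trans (Nat.card_le_card_of_surjective _ ConjClasses.mk_surjective) ?_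
      rw [Subgroup.card_bot]
      exact Nat.one_le_two_pow
    obtain ⟨x, hx, hx1⟩ := (Subgroup.bot_or_exists_ne_one H).resolve_left hH
    obtain ⟨a, ha⟩ : ∃ a, x a ≠ a := by
      by_contra! hcon
      exact hx1 (Equiv.ext hcon)
    have hmove : ∀ b ∈ MulAction.orbit H a, ∃ y ∈ H, y b ≠ b := by
      rintro b ⟨⟨c, hc⟩, rfl⟩
      refine ⟨c * x * c⁻¹, H.mul_mem (H.mul_mem hc hx) (H.inv_mem hc), ?_⟩
      simpa [Subgroup.smul_def, Perm.smul_def] using ha
    have hpt : ∀ b ∈ MulAction.orbit H a,
        ∑ g ∈ ({g : Perm α | g ∈ H} : Finset (Perm α)), cc H b g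
          ≤ Nat.card ↥(H ⊓ MulAction.stabilizer (Perm α) b)
              * 2 ^ (Fintype.card α - orb H) := by
      intro b hb
      obtain ⟨y, hy, hyb⟩ := hmove b hb
      have h := path_sum H b (fun g i => ih _ ?_ _ rfl) (Fintype.card α) 0 1 (by simp) H.one_mem
        (fun j h1 h2 => by omega)
      · rw [pre_succ, pre_zero, pow_zero, Perm.one_apply] at h
        refine le_trans (le_of_eq (Finset.sum_congr ?_ fun _ _ => rfl)) h
        ext g
        simp [mem_path]
      · rw [← hN]
        refine lt_of_le_of_ne (Subgroup.card_le_of_le (pre_le H g b (i + 1))) fun he => hyb ?_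
        have : pre H g b (i + 1) = H :=
          Subgroup.eq_of_le_of_card_ge (pre_le H g b (i + 1)) he.ge
        rw [← this] at hy
        simpa using hy.2 0 (Nat.succ_pos i)
    refine Nat.le_of_mul_le_mul_right ?_ (Nat.card_pos (α := H))
    rw [← sum_commute_eq H]
    calc ∑ g ∈ ({g : Perm α | g ∈ H} : Finset (Perm α)), #{h : Perm α | h ∈ H ∧ Commute g h}
        ≤ ∑ g ∈ ({g : Perm α | g ∈ H} : Finset (Perm α)),
            ∑ b ∈ (MulAction.orbit H a).toFinset, cc H b g :=
          Finset.sum_le_sum fun g _ => centralizer_le_sum H a g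
      _ = ∑ b ∈ (MulAction.orbit H a).toFinset,
            ∑ g ∈ ({g : Perm α | g ∈ H} : Finset (Perm α)), cc H b g := Finset.sum_comm
      _ ≤ ∑ b ∈ (MulAction.orbit H a).toFinset,
            Nat.card ↥(H ⊓ MulAction.stabilizer (Perm α) b) * 2 ^ (Fintype.card α - orb H) :=
          Finset.sum_le_sum fun b hb => hpt b (Set.mem_toFinset.1 hb)
      _ = (∑ b ∈ (MulAction.orbit H a).toFinset,
            Nat.card ↥(H ⊓ MulAction.stabilizer (Perm α) b)) * 2 ^ (Fintype.card α - orb H) :=
          (Finset.sum_mul _ _ _).symm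
      _ = Nat.card H * 2 ^ (Fintype.card α - orb H) := by
          congr 1
          have hb : ∀ b ∈ (MulAction.orbit H a).toFinset,
              Nat.card ↥(H ⊓ MulAction.stabilizer (Perm α) b) * Nat.card (MulAction.orbit H a)
                = Nat.card H := fun b hb => by
            rw [← MulAction.orbit_eq_iff.2 (Set.mem_toFinset.1 hb)]
            exact card_stab_mul_orbit H b
          refine Nat.eq_of_mul_eq_mul_right
            (Nat.card_pos_iff.2 ⟨⟨⟨a, MulAction.mem_orbit_self a⟩⟩, inferInstance⟩ :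
              0 < Nat.card (MulAction.orbit H a)) ?_
          rw [Finset.sum_mul, Finset.sum_congr rfl hb, Finset.sum_const, smul_eq_mul,
            Set.toFinset_card, ← Nat.card_eq_fintype_card, mul_comm]
      _ = _ := mul_comm _ _

theorem card_conjClasses_le_two_pow (H : Subgroup (Perm α)) :
    Nat.card (ConjClasses H) ≤ 2 ^ (Fintype.card α - 1) := by
  refine (card_conjClasses_le_orb _ H rfl).trans (Nat.pow_le_pow_right (by norm_num) ?_)
  rcases isEmpty_or_nonempty α with hE | hNE
  · simp [Fintype.card_eq_zero]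
  · have : 0 < orb H := Nat.card_pos_iff.2 ⟨⟨Quotient.mk'' (Classical.arbitrary α)⟩, inferInstance⟩
    omega

end Cfsg.Agent.KPerm
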